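import Mathlib
import Cfsg.Agent.Lib.Helper99.C64.Defs

/-!
# S6000 (team project C64): package [NGEN]

Membership in the normalizer of the standard group `R0 ι` can be checked on the generators:
conjugation by `g` maps `R0` into itself (closure induction), and `g` has finite order.
-/

set_option autoImplicit false

namespace Cfsg.Agent.Lib.Helper79.C64

open Cfsg.Agent.Lib.Helper99.C64 Matrix

universe u

/-- In a finite group, an element conjugating a subgroup into itself normalizes it. -/
theorem ngen_mem_normalizer_of_conj_le {G : Type*} [Group G] [Finite G] (H : Subgroup G) (g : G)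
    (hle : ∀ h ∈ H, g * h * g⁻¹ ∈ H) : g ∈ Subgroup.normalizer (H : Set G) := by
  rw [Subgroup.mem_normalizer_iff]
  intro h
  refine ⟨hle h, fun hh => ?_⟩
  obtain ⟨n, hn, hgn⟩ := isOfFinOrder_iff_pow_eq_one.mp (isOfFinOrder_of_finite g)
  have hpow : ∀ k : ℕ, ∀ x ∈ H, g ^ k * x * (g ^ k)⁻¹ ∈ H := by
    intro k
    induction k with
    | zero =>
      intro x hx
      simpa using hx
    | succ k ih =>
      intro x hx
      have e : g ^ (k + 1) * x * (g ^ (k + 1))⁻¹ = g ^ k * (g * x * g⁻¹) * (g ^ k)⁻¹ := by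
        rw [pow_succ]
        group
      rw [e]
      exact ih _ (hle x hx)
  have h1 := hpow (n - 1) _ hh
  have hinv : g ^ (n - 1) = g⁻¹ := by
    rw [eq_inv_iff_mul_eq_one, ← pow_succ, Nat.sub_add_cancel hn, hgn]
  rw [hinv] at h1
  have e : g⁻¹ * (g * h * g⁻¹) * g⁻¹⁻¹ = h := by group
  rwa [e] at h1

/-- **[NGEN]** -/
theorem pkgNGen : PkgNGen.{u} := by
  intro F _ _ ι g hg
  classical
  have hle : ∀ h ∈ R0 ι, g * h * g⁻¹ ∈ R0 ι := by
    intro h hh
    unfold R0 at hh
    induction hh using Subgroup.closure_induction with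
    | mem s hs => exact hg s hs
    | one =>
      have e : g * 1 * g⁻¹ = 1 := by group
      rw [e]
      exact (R0 ι).one_mem
    | mul a b _ _ iha ihb =>
      have e : g * (a * b) * g⁻¹ = (g * a * g⁻¹) * (g * b * g⁻¹) := by group
      rw [e]
      exact (R0 ι).mul_mem iha ihb
    | inv a _ iha =>
      have e : g * a⁻¹ * g⁻¹ = (g * a * g⁻¹)⁻¹ := by group
      rw [e]
      exact (R0 ι).inv_mem iha
  exact ngen_mem_normalizer_of_conj_le (R0 ι) g hle

end Cfsg.Agent.Lib.Helper79.C64
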