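import Mathlib
import Cfsg.Agent.Lib.Helper79.C64.NGen

/-!
# S6000 (team project C64): tools for the normalizer relations ([ND], [NH], [NG])

The standard generators as elements of `GL_4(F)`, and the criterion: if `y = c • M` and
`M * s = w * M` with `w ∈ R0 ι` for each of the four non-scalar generators `s`, then `y`
normalizes `R0 ι`.
-/

set_option autoImplicit false

namespace Cfsg.Agent.Lib.Helper79.C64

open Cfsg.Agent.Lib.Helper99.C64 Matrix

universe u

section gens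

variable (F : Type u) [Field F]

theorem nrm_mZa_sq : mZa F * mZa F = 1 := by
  ext i j
  fin_cases i <;> fin_cases j <;> simp [mZa, Matrix.mul_apply, Fin.sum_univ_four]

theorem nrm_mXa_sq : mXa F * mXa F = 1 := by
  ext i j
  fin_cases i <;> fin_cases j <;> simp [mXa, Matrix.mul_apply, Fin.sum_univ_four]

theorem nrm_mZb_sq : mZb F * mZb F = 1 := by
  ext i j
  fin_cases i <;> fin_cases j <;> simp [mZb, Matrix.mul_apply, Fin.sum_univ_four]

theorem nrm_mXb_sq : mXb F * mXb F = 1 := by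
  ext i j
  fin_cases i <;> fin_cases j <;> simp [mXb, Matrix.mul_apply, Fin.sum_univ_four]

/-- `Z ⊗ 1` as a unit. -/
def uZa : GL (Fin 4) F := ⟨mZa F, mZa F, nrm_mZa_sq F, nrm_mZa_sq F⟩
/-- `X ⊗ 1` as a unit. -/
def uXa : GL (Fin 4) F := ⟨mXa F, mXa F, nrm_mXa_sq F, nrm_mXa_sq F⟩
/-- `1 ⊗ Z` as a unit. -/
def uZb : GL (Fin 4) F := ⟨mZb F, mZb F, nrm_mZb_sq F, nrm_mZb_sq F⟩
/-- `1 ⊗ X` as a unit. -/
def uXb : GL (Fin 4) F := ⟨mXb F, mXb F, nrm_mXb_sq F, nrm_mXb_sq F⟩

variable {F}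

/-- The scalar `ι` as a unit. -/
def uI (ι : F) (hι : ι ^ 2 = -1) : GL (Fin 4) F :=
  ⟨ι • (1 : M4 F), (-ι) • (1 : M4 F),
    by
      rw [Matrix.smul_mul, Matrix.mul_smul, mul_one, smul_smul]
      have : ι * -ι = 1 := by linear_combination -hι
      rw [this, one_smul],
    by
      rw [Matrix.smul_mul, Matrix.mul_smul, mul_one, smul_smul]
      have : -ι * ι = 1 := by linear_combination -hι
      rw [this, one_smul]⟩

theorem uZa_mem (ι : F) : uZa F ∈ R0 ι :=
  Subgroup.subset_closure (show mZa F ∈ gens ι by simp [gens])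

theorem uXa_mem (ι : F) : uXa F ∈ R0 ι :=
  Subgroup.subset_closure (show mXa F ∈ gens ι by simp [gens])

theorem uZb_mem (ι : F) : uZb F ∈ R0 ι :=
  Subgroup.subset_closure (show mZb F ∈ gens ι by simp [gens])

theorem uXb_mem (ι : F) : uXb F ∈ R0 ι :=
  Subgroup.subset_closure (show mXb F ∈ gens ι by simp [gens])

theorem uI_mem (ι : F) (hι : ι ^ 2 = -1) : uI ι hι ∈ R0 ι :=
  Subgroup.subset_closure (show ι • (1 : M4 F) ∈ gens ι by simp [gens])

/-- The normalizer criterion. -/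
theorem nrm_mem_N0 [Fintype F] (ι : F) (y : GL (Fin 4) F) (c : F) (M : M4 F)
    (hy : (y : M4 F) = c • M)
    (h1 : ∃ w ∈ R0 ι, M * mZa F = (w : M4 F) * M)
    (h2 : ∃ w ∈ R0 ι, M * mXa F = (w : M4 F) * M)
    (h3 : ∃ w ∈ R0 ι, M * mZb F = (w : M4 F) * M)
    (h4 : ∃ w ∈ R0 ι, M * mXb F = (w : M4 F) * M) : y ∈ N0 ι := by
  apply pkgNGen F ι y
  intro s hs
  have key : ∀ w : GL (Fin 4) F, w ∈ R0 ι → M * (s : M4 F) = (w : M4 F) * M →
      y * s * y⁻¹ ∈ R0 ι := by
    intro w hw hrel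
    have e : y * s * y⁻¹ = w := by
      apply Units.ext
      rw [Units.val_mul, Units.val_mul, hy, Matrix.smul_mul, hrel, ← Matrix.mul_smul, ← hy,
        mul_assoc, ← Units.val_mul, mul_inv_cancel, Units.val_one, mul_one]
    rw [e]
    exact hw
  have hs0 := hs
  simp only [gens, Set.mem_insert_iff, Set.mem_singleton_iff] at hs
  rcases hs with hs | hs | hs | hs | hs
  · refine key s (Subgroup.subset_closure hs0) ?_
    rw [hs, Matrix.mul_smul, Matrix.smul_mul, mul_one, one_mul]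
  · obtain ⟨w, hw, hrel⟩ := h1
    exact key w hw (by rw [hs]; exact hrel)
  · obtain ⟨w, hw, hrel⟩ := h2
    exact key w hw (by rw [hs]; exact hrel)
  · obtain ⟨w, hw, hrel⟩ := h3
    exact key w hw (by rw [hs]; exact hrel)
  · obtain ⟨w, hw, hrel⟩ := h4
    exact key w hw (by rw [hs]; exact hrel)

end gens

end Cfsg.Agent.Lib.Helper79.C64
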