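import Mathlib
import Cfsg.Agent.Lib.Helper79.C64.Norm

/-!
# S6000 (team project C64): package [ND]

Scalar multiples of `d1 = diag(1,1,1,-1)`, `mZa` and `d3 = diag(1,-1,-1,-1)` normalize `R0 ι`.
-/

set_option autoImplicit false

namespace Cfsg.Agent.Lib.Helper79.C64

open Cfsg.Agent.Lib.Helper99.C64 Matrix

universe u

section nd

variable {F : Type u} [Field F]

/-- `-1 ∈ R0 ι`. -/
theorem neg_one_mem_R0 (ι : F) (hι : ι ^ 2 = -1) : (-1 : GL (Fin 4) F) ∈ R0 ι := by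
  have e : (-1 : GL (Fin 4) F) = uI ι hι * uI ι hι := by
    apply Units.ext
    show (-1 : M4 F) = ι • (1 : M4 F) * ι • (1 : M4 F)
    rw [Matrix.smul_mul, Matrix.mul_smul, mul_one, smul_smul]
    have : ι * ι = -1 := by linear_combination hι
    rw [this, neg_smul, one_smul]
  rw [e]
  exact Subgroup.mul_mem _ (uI_mem ι hι) (uI_mem ι hι)

theorem nd_d1_Za : d1 F * mZa F = mZa F * d1 F := by
  ext i j
  fin_cases i <;> fin_cases j <;> simp [d1, mZa, Matrix.mul_apply, Fin.sum_univ_four]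

theorem nd_d1_Xa : d1 F * mXa F = mXa F * mZb F * d1 F := by
  ext i j
  fin_cases i <;> fin_cases j <;> simp [d1, mXa, mZb, Matrix.mul_apply, Fin.sum_univ_four]

theorem nd_d1_Zb : d1 F * mZb F = mZb F * d1 F := by
  ext i j
  fin_cases i <;> fin_cases j <;> simp [d1, mZb, Matrix.mul_apply, Fin.sum_univ_four]

theorem nd_d1_Xb : d1 F * mXb F = mZa F * mXb F * d1 F := by
  ext i j
  fin_cases i <;> fin_cases j <;> simp [d1, mZa, mXb, Matrix.mul_apply, Fin.sum_univ_four]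

theorem nd_Za_Xa : mZa F * mXa F = -1 * mXa F * mZa F := by
  ext i j
  fin_cases i <;> fin_cases j <;> simp [mZa, mXa, Matrix.mul_apply, Fin.sum_univ_four]

theorem nd_Za_Zb : mZa F * mZb F = mZb F * mZa F := by
  ext i j
  fin_cases i <;> fin_cases j <;> simp [mZa, mZb, Matrix.mul_apply, Fin.sum_univ_four]

theorem nd_Za_Xb : mZa F * mXb F = mXb F * mZa F := by
  ext i j
  fin_cases i <;> fin_cases j <;> simp [mZa, mXb, Matrix.mul_apply, Fin.sum_univ_four]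

theorem nd_d3_Za : d3 F * mZa F = mZa F * d3 F := by
  ext i j
  fin_cases i <;> fin_cases j <;> simp [d3, mZa, Matrix.mul_apply, Fin.sum_univ_four]

theorem nd_d3_Xa : d3 F * mXa F = -1 * mXa F * mZb F * d3 F := by
  ext i j
  fin_cases i <;> fin_cases j <;> simp [d3, mXa, mZb, Matrix.mul_apply, Fin.sum_univ_four]

theorem nd_d3_Zb : d3 F * mZb F = mZb F * d3 F := by
  ext i j
  fin_cases i <;> fin_cases j <;> simp [d3, mZb, Matrix.mul_apply, Fin.sum_univ_four]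

theorem nd_d3_Xb : d3 F * mXb F = -1 * mZa F * mXb F * d3 F := by
  ext i j
  fin_cases i <;> fin_cases j <;> simp [d3, mZa, mXb, Matrix.mul_apply, Fin.sum_univ_four]

end nd

/-- **[ND]** -/
theorem pkgND : PkgND.{u} := by
  intro F _ _ _ ι hι y c hy
  have hn := neg_one_mem_R0 ι hι
  rcases hy with hy | hy | hy
  · exact nrm_mem_N0 ι y c (d1 F) hy ⟨uZa F, uZa_mem ι, nd_d1_Za⟩
      ⟨uXa F * uZb F, Subgroup.mul_mem _ (uXa_mem ι) (uZb_mem ι), nd_d1_Xa⟩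
      ⟨uZb F, uZb_mem ι, nd_d1_Zb⟩
      ⟨uZa F * uXb F, Subgroup.mul_mem _ (uZa_mem ι) (uXb_mem ι), nd_d1_Xb⟩
  · exact nrm_mem_N0 ι y c (mZa F) hy ⟨uZa F, uZa_mem ι, rfl⟩
      ⟨-1 * uXa F, Subgroup.mul_mem _ hn (uXa_mem ι), nd_Za_Xa⟩
      ⟨uZb F, uZb_mem ι, nd_Za_Zb⟩
      ⟨uXb F, uXb_mem ι, nd_Za_Xb⟩
  · exact nrm_mem_N0 ι y c (d3 F) hy ⟨uZa F, uZa_mem ι, nd_d3_Za⟩
      ⟨-1 * uXa F * uZb F, Subgroup.mul_mem _ (Subgroup.mul_mem _ hn (uXa_mem ι)) (uZb_mem ι),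
        nd_d3_Xa⟩
      ⟨uZb F, uZb_mem ι, nd_d3_Zb⟩
      ⟨-1 * uZa F * uXb F, Subgroup.mul_mem _ (Subgroup.mul_mem _ hn (uZa_mem ι)) (uXb_mem ι),
        nd_d3_Xb⟩

end Cfsg.Agent.Lib.Helper79.C64
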