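import Mathlib
import Cfsg.Agent.Lib.Helper79.C64.ND

/-!
# S6000 (team project C64): package [NG]

Scalar multiples of the element `g5 ι` of order 5 normalize `R0 ι`.
-/

set_option autoImplicit false

namespace Cfsg.Agent.Lib.Helper79.C64

open Cfsg.Agent.Lib.Helper99.C64 Matrix

universe u

section ng

variable {F : Type u} [Field F]

/-- `2 • g5 ι`. -/
def ng5 (ι : F) : M4 F :=
  !![-ι, -ι, 1, -1; -ι, ι, 1, 1; -ι, -ι, -1, 1; -ι, ι, -1, -1]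

theorem ng_g5_eq (ι : F) : g5 ι = (2 : F)⁻¹ • ng5 ι := rfl

theorem ng_Za (ι : F) : ng5 ι * mZa F = mXa F * ng5 ι := by
  ext i j
  fin_cases i <;> fin_cases j <;>
    simp [ng5, mZa, mXa, Matrix.mul_apply, Fin.sum_univ_four]

theorem ng_Xa (ι : F) (hι : ι ^ 2 = -1) :
    ng5 ι * mXa F = ι • (1 : M4 F) * mZa F * mXa F * mXb F * ng5 ι := by
  ext i j
  fin_cases i <;> fin_cases j <;>
    simp [ng5, mZa, mXa, mXb, Matrix.mul_apply, Fin.sum_univ_four] <;> grind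

theorem ng_Zb (ι : F) : ng5 ι * mZb F = mXb F * ng5 ι := by
  ext i j
  fin_cases i <;> fin_cases j <;>
    simp [ng5, mZb, mXb, Matrix.mul_apply, Fin.sum_univ_four]

theorem ng_Xb (ι : F) : ng5 ι * mXb F = mXa F * mZb F * ng5 ι := by
  ext i j
  fin_cases i <;> fin_cases j <;>
    simp [ng5, mXa, mZb, mXb, Matrix.mul_apply, Fin.sum_univ_four]

end ng

/-- **[NG]** -/
theorem pkgNG : PkgNG.{u} := by
  intro F _ _ _ ι hι y c hy
  have hy' : (y : M4 F) = (c * (2 : F)⁻¹) • ng5 ι := by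
    rw [hy, ng_g5_eq, smul_smul]
  exact nrm_mem_N0 ι y _ (ng5 ι) hy'
    ⟨uXa F, uXa_mem ι, ng_Za ι⟩
    ⟨uI ι hι * uZa F * uXa F * uXb F,
      Subgroup.mul_mem _ (Subgroup.mul_mem _ (Subgroup.mul_mem _ (uI_mem ι hι) (uZa_mem ι))
        (uXa_mem ι)) (uXb_mem ι),
      ng_Xa ι hι⟩
    ⟨uXb F, uXb_mem ι, ng_Zb ι⟩
    ⟨uXa F * uZb F, Subgroup.mul_mem _ (uXa_mem ι) (uZb_mem ι), ng_Xb ι⟩

end Cfsg.Agent.Lib.Helper79.C64
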