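import Mathlib
import Cfsg.Agent.Lib.Helper79.C64.ND

/-!
# S6000 (team project C64): package [NH]

Scalar multiples of the Hurwitz units `hA ι`, `hB ι` normalize `R0 ι`.
-/

set_option autoImplicit false

namespace Cfsg.Agent.Lib.Helper79.C64

open Cfsg.Agent.Lib.Helper99.C64 Matrix

universe u

section nh

variable {F : Type u} [Field F]

/-- `2 • hA ι`. -/
def nhA (ι : F) : M4 F :=
  !![-1 + ι, 0, -1 + ι, 0; 0, -1 + ι, 0, -1 + ι; 1 + ι, 0, -1 - ι, 0; 0, 1 + ι, 0, -1 - ι]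

/-- `2 • hB ι`. -/
def nhB (ι : F) : M4 F :=
  !![-ι, -ι, -ι, -ι; -1, 1, -1, 1; -1, -1, 1, 1; ι, -ι, -ι, ι]

theorem nh_hA_eq (ι : F) : hA ι = (2 : F)⁻¹ • nhA ι := rfl

theorem nh_hB_eq (ι : F) : hB ι = (2 : F)⁻¹ • nhB ι := rfl

theorem nh_A_Za (ι : F) (hι : ι ^ 2 = -1) :
    nhA ι * mZa F = ι • (1 : M4 F) * mZa F * mXa F * nhA ι := by
  ext i j
  fin_cases i <;> fin_cases j <;>
    simp [nhA, mZa, mXa, Matrix.mul_apply, Fin.sum_univ_four] <;> grind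

theorem nh_A_Xa (ι : F) : nhA ι * mXa F = mZa F * nhA ι := by
  ext i j
  fin_cases i <;> fin_cases j <;>
    simp [nhA, mZa, mXa, Matrix.mul_apply, Fin.sum_univ_four] <;> grind

theorem nh_A_Zb (ι : F) : nhA ι * mZb F = mZb F * nhA ι := by
  ext i j
  fin_cases i <;> fin_cases j <;>
    simp [nhA, mZb, Matrix.mul_apply, Fin.sum_univ_four]

theorem nh_A_Xb (ι : F) : nhA ι * mXb F = mXb F * nhA ι := by
  ext i j
  fin_cases i <;> fin_cases j <;>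
    simp [nhA, mXb, Matrix.mul_apply, Fin.sum_univ_four]

theorem nh_B_Za (ι : F) (hι : ι ^ 2 = -1) :
    nhB ι * mZa F = ι • (1 : M4 F) * mZa F * mXa F * nhB ι := by
  ext i j
  fin_cases i <;> fin_cases j <;>
    simp [nhB, mZa, mXa, Matrix.mul_apply, Fin.sum_univ_four] <;> grind

theorem nh_B_Xa (ι : F) : nhB ι * mXa F = mZa F * nhB ι := by
  ext i j
  fin_cases i <;> fin_cases j <;>
    simp [nhB, mZa, mXa, Matrix.mul_apply, Fin.sum_univ_four]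

theorem nh_B_Zb (ι : F) (hι : ι ^ 2 = -1) :
    nhB ι * mZb F = ι • (1 : M4 F) * mZb F * mXb F * nhB ι := by
  ext i j
  fin_cases i <;> fin_cases j <;>
    simp [nhB, mZb, mXb, Matrix.mul_apply, Fin.sum_univ_four] <;> grind

theorem nh_B_Xb (ι : F) : nhB ι * mXb F = mZb F * nhB ι := by
  ext i j
  fin_cases i <;> fin_cases j <;>
    simp [nhB, mZb, mXb, Matrix.mul_apply, Fin.sum_univ_four]

end nh

/-- **[NH]** -/
theorem pkgNH : PkgNH.{u} := by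
  intro F _ _ _ ι hι y c hy
  rcases hy with hy | hy
  · have hy' : (y : M4 F) = (c * (2 : F)⁻¹) • nhA ι := by
      rw [hy, nh_hA_eq, smul_smul]
    exact nrm_mem_N0 ι y _ (nhA ι) hy'
      ⟨uI ι hι * uZa F * uXa F,
        Subgroup.mul_mem _ (Subgroup.mul_mem _ (uI_mem ι hι) (uZa_mem ι)) (uXa_mem ι),
        nh_A_Za ι hι⟩
      ⟨uZa F, uZa_mem ι, nh_A_Xa ι⟩
      ⟨uZb F, uZb_mem ι, nh_A_Zb ι⟩
      ⟨uXb F, uXb_mem ι, nh_A_Xb ι⟩
  · have hy' : (y : M4 F) = (c * (2 : F)⁻¹) • nhB ι := by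
      rw [hy, nh_hB_eq, smul_smul]
    exact nrm_mem_N0 ι y _ (nhB ι) hy'
      ⟨uI ι hι * uZa F * uXa F,
        Subgroup.mul_mem _ (Subgroup.mul_mem _ (uI_mem ι hι) (uZa_mem ι)) (uXa_mem ι),
        nh_B_Za ι hι⟩
      ⟨uZa F, uZa_mem ι, nh_B_Xa ι⟩
      ⟨uI ι hι * uZb F * uXb F,
        Subgroup.mul_mem _ (Subgroup.mul_mem _ (uI_mem ι hι) (uZb_mem ι)) (uXb_mem ι),
        nh_B_Zb ι hι⟩
      ⟨uZb F, uZb_mem ι, nh_B_Xb ι⟩

end Cfsg.Agent.Lib.Helper79.C64
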